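import Mathlib
import Cfsg.Agent.Lib.MultC.Pkg
import Cfsg.Agent.Lib.MultC.U62.Base
import Cfsg.Agent.Lib.LieModel.U62.P.Main

/-! the permutation group of the package -/

set_option autoImplicit false
set_option maxRecDepth 100000
set_option Elab.async false

namespace CfsgLib.MultC.U62

open CfsgLib.Comput CfsgLib.MultC

/-- the permutation group -/
noncomputable abbrev PG : Subgroup (Equiv.Perm (Fin 672)) := cl (permG 672 CfsgLib.LieModel.U62.P.W) CfsgLib.LieModel.U62.P.top

theorem model : PModel PG 672 (finPt 672) := (pModel_perm 672 (by norm_num)).subgroup _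

theorem real0 : AllReal PG 672 (finPt 672) V0 :=
  AllReal.cons (isReal_cl CfsgLib.LieModel.U62.P.W_ok 0 (by norm_num) (by decide)) (AllReal.cons (isReal_cl CfsgLib.LieModel.U62.P.W_ok 2 (by norm_num) (by decide)) (AllReal.nil))

theorem card : Nat.card PG = 9196830720 := CfsgLib.LieModel.U62.P.card_perm

instance : Finite PG := Nat.finite_of_card_ne_zero (by rw [card]; norm_num)

end CfsgLib.MultC.U62
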